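import Cfsg.Agent.H92.RtPhi
import Mathlib.Analysis.Fourier.FiniteAbelian.PontryaginDuality

/-! S2755, piece HA: the values of `h` on the torus. -/

set_option autoImplicit false
set_option linter.unusedVariables false

namespace Cfsg.Agent.C2Ab.RtHA

open Cfsg Cfsg.Agent Cfsg.Agent.H92.Rt
open scoped ComplexConjugate

/-- a function on a finite abelian group orthogonal to all nontrivial linear characters is
constant -/
theorem const_of_ortho {A : Type*} [CommGroup A] [Fintype A] (g : A → ℂ)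
    (hg : ∀ θ : A →* ℂ, θ ≠ 1 → ∑ a : A, g a * θ a = 0) (a b : A) : g a = g b := by
  classical
  have key : ∀ a : A, (Fintype.card A : ℂ) * g a = ∑ x : A, g x := by
    intro a
    have h1 : ∑ ψ : AddChar (Additive A) ℂ, ∑ x : Additive A, g x.toMul * ψ (x - Additive.ofMul a) =
        (Fintype.card A : ℂ) * g a := by
      rw [Finset.sum_comm]
      have : ∀ x : Additive A, ∑ ψ : AddChar (Additive A) ℂ, g x.toMul * ψ (x - Additive.ofMul a) =
          if x = Additive.ofMul a then (Fintype.card A : ℂ) * g a else 0 := by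
        intro x
        rw [← Finset.mul_sum, AddChar.sum_apply_eq_ite]
        by_cases hx : x = Additive.ofMul a
        · rw [hx, sub_self, if_pos rfl, if_pos rfl, mul_comm,
            show Fintype.card (Additive A) = Fintype.card A from Fintype.card_congr Additive.toMul]
          rfl
        · simp [hx, sub_eq_zero]
      rw [Finset.sum_congr rfl fun x _ => this x]
      simp
    rw [← h1, Finset.sum_eq_single (1 : AddChar (Additive A) ℂ)]
    · simp only [AddChar.one_apply, mul_one]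
      exact Fintype.sum_equiv Additive.toMul _ _ (fun x => rfl)
    · intro ψ _ hψ
      let θ : A →* ℂ :=
        { toFun := fun a => ψ (Additive.ofMul a)
          map_one' := by simp
          map_mul' := fun x y => by rw [ofMul_mul, AddChar.map_add_eq_mul] }
      have hθ : θ ≠ 1 := by
        intro h
        apply hψ
        ext x
        exact DFunLike.congr_fun h x.toMul
      have h2 := hg θ hθ
      have h3 : ∀ x : Additive A, g x.toMul * ψ (x - Additive.ofMul a) =
          (g x.toMul * θ x.toMul) * ψ (-Additive.ofMul a) := by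
        intro x
        rw [sub_eq_add_neg, AddChar.map_add_eq_mul]
        show _ = (g x.toMul * ψ x) * _
        ring
      rw [Finset.sum_congr rfl fun x _ => h3 x, ← Finset.sum_mul]
      have h4 : ∑ x : Additive A, g x.toMul * θ x.toMul = ∑ a : A, g a * θ a :=
        Fintype.sum_equiv Additive.toMul _ _ (fun x => rfl)
      rw [h4, h2, zero_mul]
    · simp
  have h0 : (Fintype.card A : ℂ) ≠ 0 := by exact_mod_cast Fintype.card_ne_zero
  exact mul_left_cancel₀ h0 ((key a).trans (key b).symm)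

/-- `h` on the torus, `K0` and `K1` as hypotheses -/
theorem h_torus' {K : Type*} [Group K] [Fintype K] {q m : ℕ} {U A : Subgroup K} {k s r : K}
    (D : KD q m U A k s r) [Fintype U] [Fintype A] [Fintype (Subgroup.normalizer (U : Set K))]
    (K0 : ∀ f : K → ℂ, (∀ g y : K, f (g * y * g⁻¹) = f y) →
      (∀ y : K, ¬ Odd (orderOf y) → f y = 0) →
      2 * ∑ y : K, f y = 2 * f 1 + 2 * ((q : ℂ) + 1) * ((∑ x : U, f x) - f 1) +
        ((q : ℂ) + 1) * ((∑ b : Subgroup.normalizer (U : Set K), f b) - ∑ x : U, f x) +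
        (q : ℂ) * ((q : ℂ) - 1) * ((∑ a : A, f a) - f 1))
    (K1 : ∀ θ : A →* ℂ, ∃ φ : K → ℂ, IsPhi q U A θ φ)
    (h : K → ℂ) (hcl : ∀ g y : K, h (g * y * g⁻¹) = h y) (hsup : ∀ y : K, ¬ Odd (orderOf y) → h y = 0)
    (n1 s' : ℤ) (h1 : h 1 = n1) (hU : ∀ x ∈ U, x ≠ 1 → h x = s') (hn : n1 + (q - 1) * s' = 0)
    (hphi : ∀ (θ : A →* ℂ) (φ : K → ℂ), θ ≠ 1 → IsPhi q U A θ φ → ∑ y : K, h y * φ y = 0)
    (hnorm : 4 * ∑ y : K, ‖h y‖ ^ 2 < (q : ℝ) * ((q : ℝ) ^ 2 - 1)) : s' = 0 := by
  classical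
  have hq27 : (27 : ℝ) ≤ q := by exact_mod_cast D.q27
  have cU : Fintype.card U = q := by rw [← Nat.card_eq_fintype_card]; exact D.cardU
  have cA : Fintype.card A = m := by rw [← Nat.card_eq_fintype_card]; exact D.cardA
  have hqm : (q : ℝ) + 1 = 4 * m := by exact_mod_cast D.qm
  -- splitting off the identity
  have split : ∀ (H : Subgroup K) [Fintype H] (f : K → ℂ), (∑ x : H, f x) - f 1 =
      ∑ x ∈ Finset.univ.erase (1 : H), f x := by
    intro H _ f
    rw [← Finset.add_sum_erase _ _ (Finset.mem_univ (1 : H))]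
    simp
  have cE : ∀ (H : Subgroup K) [Fintype H], ((Finset.univ.erase (1 : H)).card : ℂ) =
      (Fintype.card H : ℂ) - 1 := by
    intro H _
    rw [Finset.card_erase_of_mem (Finset.mem_univ _), Finset.card_univ,
      Nat.cast_sub (Nat.succ_le_of_lt Fintype.card_pos)]
    simp
  -- sum over `B \ U`
  have hUB : ∀ x : K, x ∈ U → x ∈ Subgroup.normalizer (U : Set K) := fun x hx =>
    Subgroup.le_normalizer hx
  have splitB : ∀ f : K → ℂ, (∑ b : Subgroup.normalizer (U : Set K), f b) - ∑ x : U, f x =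
      ∑ b ∈ Finset.univ.filter (fun b : Subgroup.normalizer (U : Set K) => (b : K) ∉ U), f b := by
    intro f
    rw [← Finset.sum_filter_add_sum_filter_not Finset.univ
      (fun b : Subgroup.normalizer (U : Set K) => (b : K) ∈ U)]
    have : ∑ b ∈ Finset.univ.filter (fun b : Subgroup.normalizer (U : Set K) => (b : K) ∈ U), f b =
        ∑ x : U, f x := by
      refine Finset.sum_bij' (fun b hb => ⟨(b : K), (Finset.mem_filter.1 hb).2⟩)
        (fun x _ => ⟨(x : K), hUB _ x.2⟩) ?_ ?_ ?_ ?_ ?_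
      · intro b _; exact Finset.mem_univ _
      · intro x _; exact Finset.mem_filter.2 ⟨Finset.mem_univ _, x.2⟩
      · intro b _; rfl
      · intro x _; rfl
      · intro b _; rfl
    rw [this]; ring
  -- step 1
  have hn' : (n1 : ℂ) = -((q : ℂ) - 1) * s' := by
    have : (n1 : ℂ) + ((q : ℂ) - 1) * s' = 0 := by exact_mod_cast congrArg (Int.cast (R := ℂ)) hn
    linear_combination this
  have hinv : ∀ a : A, h ((a⁻¹ : A) : K) = h a := by
    intro a
    have := hcl s a
    rw [D.sA _ a.2] at this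
    exact this
  have step1 : ∀ θ : A →* ℂ, θ ≠ 1 → ∑ a ∈ Finset.univ.erase (1 : A), h a * θ a = -2 * s' := by
    intro θ hθ
    obtain ⟨φ, hφ⟩ := K1 θ
    have e0 := K0 (fun y => h y * φ y) (fun g y => by rw [hcl, hφ.cl])
      (fun y hy => by rw [hsup y hy, zero_mul])
    have eB := splitB (fun y => h y * φ y)
    have eU := split U (fun y => h y * φ y)
    have eA := split A (fun y => h y * φ y)
    beta_reduce at eB eU eA e0
    rw [hphi θ φ hθ hφ, eB, eU, eA] at e0
    have e1 : ∑ x ∈ Finset.univ.erase (1 : U), h x * φ x = -((q : ℂ) - 1) * s' := by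
      rw [Finset.sum_congr rfl (g := fun _ => -(s' : ℂ)) ?_, Finset.sum_const, nsmul_eq_mul, cE, cU]
      · ring
      · intro x hx
        have hx1 : (x : K) ≠ 1 := fun e => (Finset.mem_erase.1 hx).1 (Subtype.ext e)
        rw [hU _ x.2 hx1, hφ.onU _ x.2 hx1]; ring
    have e2 : ∑ b ∈ Finset.univ.filter (fun b : Subgroup.normalizer (U : Set K) => (b : K) ∉ U),
        h b * φ b = 0 := by
      refine Finset.sum_eq_zero fun b hb => ?_
      rw [hφ.onB _ b.2 (Finset.mem_filter.1 hb).2, mul_zero]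
    have e3 : ∑ a ∈ Finset.univ.erase (1 : A), h a * φ a =
        -2 * ∑ a ∈ Finset.univ.erase (1 : A), h a * θ a := by
      have e4 : ∑ a ∈ Finset.univ.erase (1 : A), h a * θ a⁻¹ =
          ∑ a ∈ Finset.univ.erase (1 : A), h a * θ a := by
        refine Finset.sum_bij' (fun a _ => a⁻¹) (fun a _ => a⁻¹) ?_ ?_ ?_ ?_ ?_
        · intro a ha; simpa using ha
        · intro a ha; simpa using ha
        · intro a _; exact inv_inv a
        · intro a _; exact inv_inv a
        · intro a _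
          rw [hinv]
      have e5 : ∑ a ∈ Finset.univ.erase (1 : A), h a * φ a =
          ∑ a ∈ Finset.univ.erase (1 : A), (-(h a * θ a) - h a * θ a⁻¹) := by
        refine Finset.sum_congr rfl fun a ha => ?_
        rw [hφ.onA a (Finset.mem_erase.1 ha).1]; ring
      rw [e5, Finset.sum_sub_distrib, e4, Finset.sum_neg_distrib]; ring
    rw [e1, e2, e3, h1, hφ.one, hn'] at e0
    have hq : (q : ℂ) ≠ 0 := by
      have : q ≠ 0 := by have := D.q27; omega
      exact_mod_cast this
    have hq1 : (q : ℂ) - 1 ≠ 0 := by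
      have : (q : ℂ) ≠ 1 := by
        have : q ≠ 1 := by have := D.q27; omega
        exact_mod_cast this
      exact sub_ne_zero.2 this
    have h2q : (2 : ℂ) * q * ((q : ℂ) - 1) ≠ 0 := mul_ne_zero (mul_ne_zero two_ne_zero hq) hq1
    apply mul_left_cancel₀ h2q
    linear_combination e0
  -- step 2: `h = 2 s'` on `A#`
  have step2 : ∀ a : A, a ≠ 1 → h a = 2 * s' := by
    haveI := D.Acyc
    letI : CommGroup A := IsCyclic.commGroup
    intro a ha
    let g : A → ℂ := fun x => if x = 1 then 0 else h x - 2 * s'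
    have hg : ∀ θ : A →* ℂ, θ ≠ 1 → ∑ x : A, g x * θ x = 0 := by
      intro θ hθ
      have h3 : ∑ x : A, θ x = 0 := by
        obtain ⟨y, hy⟩ : ∃ y : A, θ y ≠ 1 := by
          by_contra hcon
          push Not at hcon
          exact hθ (MonoidHom.ext hcon)
        have h4 : θ y * ∑ x : A, θ x = ∑ x : A, θ x := by
          rw [Finset.mul_sum]
          exact Fintype.sum_equiv (Equiv.mulLeft y) _ _ (fun x => by simp)
        have h5 : (θ y - 1) * ∑ x : A, θ x = 0 := by rw [sub_mul, h4, one_mul, sub_self]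
        exact (mul_eq_zero.1 h5).resolve_left (sub_ne_zero.2 hy)
      have h6 := Finset.add_sum_erase Finset.univ (fun x : A => θ x) (Finset.mem_univ (1 : A))
      have h7 : ∑ x : A, g x * θ x = ∑ x ∈ Finset.univ.erase (1 : A), (h x * θ x - 2 * s' * θ x) := by
        rw [← Finset.add_sum_erase _ _ (Finset.mem_univ (1 : A))]
        have : g 1 * θ 1 = 0 := by simp [g]
        rw [this, zero_add]
        refine Finset.sum_congr rfl fun x hx => ?_
        have hx1 := (Finset.mem_erase.1 hx).1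
        simp only [g, if_neg hx1]
        ring
      rw [h7, Finset.sum_sub_distrib, step1 θ hθ, ← Finset.mul_sum]
      have h8 : ∑ x ∈ Finset.univ.erase (1 : A), θ x = -1 := by
        beta_reduce at h6
        rw [h3, map_one] at h6
        linear_combination h6
      rw [h8]; ring
    have h9 := const_of_ortho g hg a 1
    simp only [g, if_neg ha, if_true] at h9
    linear_combination h9
  -- step 3
  have e0 := K0 (fun y => ((‖h y‖ ^ 2 : ℝ) : ℂ)) (fun g y => by rw [hcl])
    (fun y hy => by rw [hsup y hy]; simp)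
  have eB := splitB (fun y => ((‖h y‖ ^ 2 : ℝ) : ℂ))
  have eU := split U (fun y => ((‖h y‖ ^ 2 : ℝ) : ℂ))
  have eA := split A (fun y => ((‖h y‖ ^ 2 : ℝ) : ℂ))
  beta_reduce at eB eU eA e0
  rw [eB, eU, eA] at e0
  have f1 : ∑ x ∈ Finset.univ.erase (1 : U), ((‖h x‖ ^ 2 : ℝ) : ℂ) = ((q : ℂ) - 1) * s' ^ 2 := by
    rw [Finset.sum_congr rfl (g := fun _ => (s' : ℂ) ^ 2) ?_, Finset.sum_const, nsmul_eq_mul, cE, cU]
    intro x hx
    have hx1 : (x : K) ≠ 1 := fun e => (Finset.mem_erase.1 hx).1 (Subtype.ext e)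
    rw [hU _ x.2 hx1]
    rw [Complex.norm_intCast]; push_cast; norm_cast; simp
  have f2 : ∑ a ∈ Finset.univ.erase (1 : A), ((‖h a‖ ^ 2 : ℝ) : ℂ) = ((m : ℂ) - 1) * (4 * s' ^ 2) := by
    rw [Finset.sum_congr rfl (g := fun _ => 4 * (s' : ℂ) ^ 2) ?_, Finset.sum_const, nsmul_eq_mul, cE, cA]
    intro x hx
    rw [step2 x (Finset.mem_erase.1 hx).1, norm_mul, Complex.norm_intCast, mul_pow, sq_abs]
    push_cast
    norm_num
  have f3 : (‖h 1‖ ^ 2 : ℝ) = ((q : ℝ) - 1) ^ 2 * s' ^ 2 := by
    rw [h1, Complex.norm_intCast, sq_abs]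
    have : (n1 : ℝ) + ((q : ℝ) - 1) * s' = 0 := by exact_mod_cast congrArg (Int.cast (R := ℝ)) hn
    rw [show (n1 : ℝ) = -((q : ℝ) - 1) * s' by linear_combination this]; ring
  rw [f1, f2, f3] at e0
  have e1 : 2 * ∑ y : K, ‖h y‖ ^ 2 = 2 * (((q : ℝ) - 1) ^ 2 * s' ^ 2) +
      2 * ((q : ℝ) + 1) * (((q : ℝ) - 1) * s' ^ 2) +
      ((q : ℝ) + 1) * (∑ b ∈ Finset.univ.filter
        (fun b : Subgroup.normalizer (U : Set K) => (b : K) ∉ U), ‖h b‖ ^ 2) +
      (q : ℝ) * ((q : ℝ) - 1) * (((m : ℝ) - 1) * (4 * s' ^ 2)) := by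
    apply Complex.ofReal_injective
    push_cast
    push_cast at e0
    linear_combination e0
  have e2 : 0 ≤ ∑ b ∈ Finset.univ.filter
        (fun b : Subgroup.normalizer (U : Set K) => (b : K) ∉ U), ‖h b‖ ^ 2 :=
    Finset.sum_nonneg fun b _ => by positivity
  have e3 : 2 * (s' : ℝ) ^ 2 * (q * ((q : ℝ) ^ 2 - 1)) ≤ 4 * ∑ y : K, ‖h y‖ ^ 2 := by
    have e4 : 4 * (m : ℝ) = q + 1 := hqm.symm
    have e5 : 0 ≤ ((q : ℝ) + 1) * (∑ b ∈ Finset.univ.filter
        (fun b : Subgroup.normalizer (U : Set K) => (b : K) ∉ U), ‖h b‖ ^ 2) := by positivity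
    have e6 : (q : ℝ) * ((q : ℝ) - 1) * (((m : ℝ) - 1) * (4 * s' ^ 2)) =
        (q : ℝ) * ((q : ℝ) - 1) * ((q - 3) * s' ^ 2) := by
      linear_combination (q : ℝ) * ((q : ℝ) - 1) * s' ^ 2 * e4
    rw [e6] at e1
    nlinarith [e1, e5]
  have e7 : 0 < (q : ℝ) * ((q : ℝ) ^ 2 - 1) := by nlinarith
  have e8 : 2 * (s' : ℝ) ^ 2 < 1 := by
    by_contra hcon
    push Not at hcon
    nlinarith
  by_contra hs
  have h10 : (1 : ℝ) ≤ (s' : ℝ) ^ 2 := by
    have h11 : 0 < s' ^ 2 := by
      have : s' ≠ 0 := hs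
      positivity
    have : 1 ≤ s' ^ 2 := h11
    exact_mod_cast this
  linarith

end Cfsg.Agent.C2Ab.RtHA
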