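import Cfsg.Agent.C2Ab.RtHA
import Cfsg.Agent.H64.RtK0

/-! S2755, piece HA, `K0` inserted. -/

set_option autoImplicit false

namespace Cfsg.Agent.C2Ab.RtHA

open Cfsg Cfsg.Agent Cfsg.Agent.H92.Rt

theorem h_torus_of {K : Type*} [Group K] [Fintype K] {q m : ℕ} {U A : Subgroup K} {k s r : K}
    (D : KD q m U A k s r)
    (K1 : ∀ θ : A →* ℂ, ∃ φ : K → ℂ, IsPhi q U A θ φ)
    (h : K → ℂ) (hcl : ∀ g y : K, h (g * y * g⁻¹) = h y) (hsup : ∀ y : K, ¬ Odd (orderOf y) → h y = 0)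
    (n1 s' : ℤ) (h1 : h 1 = n1) (hU : ∀ x ∈ U, x ≠ 1 → h x = s') (hn : n1 + (q - 1) * s' = 0)
    (hphi : ∀ (θ : A →* ℂ) (φ : K → ℂ), θ ≠ 1 → IsPhi q U A θ φ → ∑ y : K, h y * φ y = 0)
    (hnorm : 4 * ∑ y : K, ‖h y‖ ^ 2 < (q : ℝ) * ((q : ℝ) ^ 2 - 1)) : s' = 0 := by
  classical
  letI : Fintype U := Fintype.ofFinite _
  letI : Fintype A := Fintype.ofFinite _
  letI : Fintype (Subgroup.normalizer (U : Set K)) := Fintype.ofFinite _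
  exact h_torus' D (fun f hc hs => Cfsg.Agent.H64.Rt.sum_formula D f hc hs) K1 h hcl hsup n1 s' h1
    hU hn hphi hnorm

end Cfsg.Agent.C2Ab.RtHA
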